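/-
The principal ideal theorem (Furtwaengler), after Witt.
-/
import Cfsg.Agent.Transfer.Mackey

set_option autoImplicit false

open Subgroup Matrix
open scoped IsMulCommutative

namespace CL.Transfer

variable {G : Type*} [Group G] [Finite G] {A : Type*} [CommGroup A]

theorem exists_det_smul_derivation (π : G →* A) (hπ : Function.Surjective π)
    (hk : π.ker ≤ commutator G) {M : Type*} [AddCommGroup M] [Module (MonoidAlgebra ℤ A) M]
    (d : G → M) (hd : ∀ g h, d (g * h) = MonoidAlgebra.of ℤ A (π h) • d g + d h) :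
    ∃ r : MonoidAlgebra ℤ A, (MonoidAlgebra.lift ℤ ℤ A 1 r).natAbs = Nat.card A ∧
      ∀ g, r • d g = 0 := by
  classical
  have := Fintype.ofFinite G
  let ε := MonoidAlgebra.lift ℤ ℤ A 1
  let I : Ideal (MonoidAlgebra ℤ A) := RingHom.ker ε
  let W := I • Submodule.span (MonoidAlgebra ℤ A) (Set.range d)
  let φ : G →* Multiplicative (M ⧸ W) := MonoidHom.mk' (fun g => .ofAdd (W.mkQ (d g))) fun g h => by
    rw [← ofAdd_add, ← map_add, hd]
    congr 1
    rw [Submodule.mkQ_apply, Submodule.mkQ_apply, Submodule.Quotient.eq, add_sub_add_right_eq_sub]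
    nth_rw 2 [← one_smul (MonoidAlgebra ℤ A) (d g)]
    rw [← sub_smul]
    exact Submodule.smul_mem_smul (by simp [I, ε, RingHom.mem_ker])
      (Submodule.subset_span ⟨g, rfl⟩)
  let ψ := π.liftOfSurjective hπ ⟨φ, hk.trans (Abelianization.commutator_subset_ker φ)⟩
  have hψ : ∀ g, ψ (π g) = φ g := fun g => π.liftOfRightInverse_comp_apply _ _ _ g
  let τ : (G → ℤ) →ₗ[ℤ] Additive A := Fintype.linearCombination ℤ fun g => Additive.ofMul (π g)
  have hτ : Function.Surjective τ := fun a => by
    obtain ⟨g, hg⟩ := hπ a.toMul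
    exact ⟨Pi.single g 1, by simp [τ, hg]⟩
  have hc : Nat.card ((G → ℤ) ⧸ LinearMap.ker τ) = Nat.card A :=
    Nat.card_congr (τ.quotKerEquivOfSurjective hτ).toEquiv
  have : Finite A := .of_surjective π hπ
  have : Finite ((G → ℤ) ⧸ LinearMap.ker τ) := Nat.finite_of_card_ne_zero (hc ▸ Nat.card_pos.ne')
  let b := Submodule.smithNormalFormBotBasis (Pi.basisFun ℤ G)
    ((Submodule.finiteQuotient_iff (LinearMap.ker τ)).mp this)
  have hb := Submodule.natAbs_det_basis_change (Pi.basisFun ℤ G) _ b
  rw [hc, Pi.basisFun_det_apply] at hb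
  have h1 : ∀ m ∈ LinearMap.ker τ, ∃ μ : G → MonoidAlgebra ℤ A, (∀ g, ε (μ g) = m g) ∧
      Fintype.linearCombination _ d μ = 0 := by
    intro m hm
    have h2 : ∑ g, m g • d g ∈ W := by
      have h3 := congrArg (MonoidHom.toAdditiveLeft ψ) (LinearMap.mem_ker.mp hm)
      rw [← Submodule.Quotient.mk_eq_zero, ← Submodule.mkQ_apply]
      simpa [τ, Fintype.linearCombination_apply, hψ, φ] using h3
    obtain ⟨ν, hν, e⟩ := (Submodule.mem_ideal_smul_span_iff_exists_sum I d _).mp h2
    refine ⟨fun g => m g - ν g, fun g => by simp [RingHom.mem_ker.mp (hν g)], ?_⟩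
    rw [Finsupp.sum_fintype _ _ (by simp)] at e
    simp [Fintype.linearCombination_apply, sub_smul, e, Int.cast_smul_eq_zsmul]
  choose μ hμ hμ' using fun i => h1 (b i) (b i).2
  refine ⟨(Matrix.of μ).det, ?_, fun g => ?_⟩
  · rw [← hb]
    congr 1
    exact (ε.toRingHom.map_det _).trans (congrArg det (Matrix.ext fun i j => hμ i j))
  · have h2 : (Matrix.of μ).det • Pi.single g 1 =
        (Pi.single g 1 ᵥ* (Matrix.of μ).adjugate) ᵥ* Matrix.of μ := by
      rw [vecMul_vecMul, adjugate_mul, vecMul_smul, vecMul_one]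
    have h3 := congrArg (Fintype.linearCombination _ d) h2
    rw [map_smul, Fintype.linearCombination_apply_single, one_smul, vecMul_eq_sum, map_sum] at h3
    rw [h3]
    exact Finset.sum_eq_zero fun i _ => by rw [map_smul]; exact smul_eq_zero_of_right _ (hμ' i)

theorem sum_smul_derivation [Fintype A] (π : G →* A) (hπ : Function.Surjective π)
    (hk : π.ker ≤ commutator G) {M : Type*} [AddCommGroup M] [Module (MonoidAlgebra ℤ A) M]
    (d : G → M) (hd : ∀ g h, d (g * h) = MonoidAlgebra.of ℤ A (π h) • d g + d h) (g : G) :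
    ∑ a, MonoidAlgebra.of ℤ A a • d g = 0 := by
  obtain ⟨r, hr, h⟩ := exists_det_smul_derivation π hπ hk
    (fun g => (d g, MonoidAlgebra.of ℤ A (π g) - 1)) fun g h => Prod.ext (hd g h) (by
      simp only [map_mul, Prod.smul_mk, Prod.mk_add_mk, smul_eq_mul]; ring)
  have h1 : ∀ a, r.coeff a = r.coeff 1 := fun a => by
    obtain ⟨g, rfl⟩ := hπ a
    have h2 : r * (MonoidAlgebra.of ℤ A (π g) - 1) = 0 := congrArg Prod.snd (h g)
    rw [mul_sub, mul_one, sub_eq_zero] at h2
    conv_lhs => rw [← h2]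
    simp
  have h2 : r = r.coeff 1 • ∑ a, MonoidAlgebra.of ℤ A a := by
    ext a
    rw [MonoidAlgebra.coeff_smul]
    simp [h1 a]
  have h3 : (r.coeff 1).natAbs = 1 := by
    rw [h2] at hr
    simpa [Int.natAbs_mul] using hr
  have h4 : r • d g = 0 := congrArg Prod.fst (h g)
  rw [h2, smul_assoc, Finset.sum_smul] at h4
  rcases Int.natAbs_eq_iff.mp h3 with e | e <;> simpa [e] using h4

/-- **The principal ideal theorem**: the transfer `G → G' / G''` is trivial. -/
theorem transfer_commutator_eq_one {B : Type*} [CommGroup B] (ϕ : commutator G →* B) :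
    MonoidHom.transfer ϕ = 1 := by
  ext g
  have := Fintype.ofFinite (G ⧸ commutator G)
  have : IsMulCommutative (G ⧸ commutator G) :=
    Normal.quotient_commutative_iff_commutator_le.mpr le_rfl
  let ρ : (G ⧸ commutator G) →* Module.End ℤ ((G ⧸ commutator G) → Additive B) :=
    { toFun := fun a => LinearMap.funLeft ℤ _ (a * ·)
      map_one' := by ext; simp
      map_mul' := fun a b => by ext; simp [mul_left_comm, mul_assoc] }
  let : Module (MonoidAlgebra ℤ (G ⧸ commutator G)) ((G ⧸ commutator G) → Additive B) :=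
    Module.compHom _ (MonoidAlgebra.lift ℤ _ _ ρ).toRingHom
  have hρ : ∀ (a : G ⧸ commutator G) (f : (G ⧸ commutator G) → Additive B),
      MonoidAlgebra.of ℤ _ a • f = fun t => f (a * t) := fun a f =>
    congrArg (· f) (MonoidAlgebra.lift_of ρ a)
  have h := sum_smul_derivation (QuotientGroup.mk' (commutator G)) (QuotientGroup.mk'_surjective _)
    (QuotientGroup.ker_mk' _).le
    (fun g (t : G ⧸ commutator G) => Additive.ofMul (extOne ϕ ((g • t).out⁻¹ * g * t.out))) (fun g h => by
      ext t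
      have e : QuotientGroup.mk' (commutator G) h * t = h • t := by
        obtain ⟨t, rfl⟩ := QuotientGroup.mk_surjective t
        rfl
      rw [hρ, Pi.add_apply, e, ← ofMul_mul, ← extOne_mul ϕ (out_smul_inv_mul_mem _ _ _)
        (out_smul_inv_mul_mem _ _ _), mul_smul]
      congr 2
      simp [mul_assoc]) g
  rw [transfer_eq_prod_out]
  simp only [hρ] at h
  simpa [Finset.sum_apply, ← ofMul_prod] using congrFun h 1

end CL.Transfer
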